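import Cfsg.Agent.ZNEnd.Pair
import Cfsg.Agent.Transfer.Focal
import Cfsg.Agent.Transfer.Fusion

/-!
Two maximal `2`-local subgroups isomorphic to `S₄ × Z₂` with a common Sylow `2`-subgroup:
the central involutions of these lie outside the subgroup generated by the elements of odd order.
-/

set_option autoImplicit false
set_option linter.unusedSectionVars false
set_option linter.style.haveILetI false

namespace CfsgLib.ZNEnd

open CfsgLib.SolvFactor (conj_mem conj_mem' mem_normalizer_of_conj mem_map_conj card_map_conj)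

variable {G : Type*} [Group G] [Finite G]

theorem conj_fix_iff {g x : G} : g * x * g⁻¹ = x ↔ g * x = x * g := mul_inv_eq_iff_eq_mul

theorem card_le_four {K : Subgroup G} {a b c e : G} (h : ∀ x ∈ K, x = a ∨ x = b ∨ x = c ∨ x = e) :
    Nat.card K ≤ 4 := by
  have hs : (K : Set G) ⊆ ({a, b, c, e} : Set G) := fun x hx => by simpa using h x hx
  show Nat.card ↥(K : Set G) ≤ 4
  rw [Nat.card_coe_set_eq]
  have h1 := Set.ncard_insert_le a ({b, c, e} : Set G)
  have h2 := Set.ncard_insert_le b ({c, e} : Set G)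
  have h3 := Set.ncard_insert_le c ({e} : Set G)
  have h4 := Set.ncard_singleton e
  have h5 := Set.ncard_le_ncard hs (Set.toFinite _)
  omega

/-- An involution all of whose conjugates in a Sylow subgroup lie in one nontrivial coset of a normal subgroup
with abelian quotient is outside the subgroup generated by the elements of odd order. -/
theorem notMem_oddGen_of_transfer (S : Sylow 2 G) {D : Subgroup G}
    (hn : (S : Subgroup G) ≤ Subgroup.normalizer (D : Set G))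
    (hcomm : ∀ a ∈ (S : Subgroup G), ∀ b ∈ (S : Subgroup G), a * b * a⁻¹ * b⁻¹ ∈ D)
    {c : G} (hc : c * c = 1) (hcS : c ∈ (S : Subgroup G)) (hcD : c ∉ D)
    (hconj : ∀ g : G, g * c * g⁻¹ ∈ (S : Subgroup G) → g * c * g⁻¹ * c ∈ D) : c ∉ oddGen G := by
  haveI : Fact (Nat.Prime 2) := ⟨Nat.prime_two⟩
  let D' : Subgroup (S : Subgroup G) := D.subgroupOf S
  haveI : D'.Normal := ⟨fun n hn' s => (conj_mem (V := D) (g := (s : G)) (v := (n : G)) (hn s.2) hn' : _)⟩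
  let _ : CommGroup ((S : Subgroup G) ⧸ D') :=
    { (inferInstance : Group ((S : Subgroup G) ⧸ D')) with
      mul_comm := fun x y => by
        induction x using QuotientGroup.induction_on with
        | _ a =>
          induction y using QuotientGroup.induction_on with
          | _ b =>
            refine (QuotientGroup.eq.2 ?_)
            show ((a : G) * b)⁻¹ * ((b : G) * a) ∈ D
            have := hcomm (b : G)⁻¹ (inv_mem b.2) (a : G)⁻¹ (inv_mem a.2)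
            simpa [mul_assoc] using this }
  set τ : G →* (S : Subgroup G) ⧸ D' := MonoidHom.transfer (QuotientGroup.mk' D') with hτ
  set a : (S : Subgroup G) ⧸ D' := QuotientGroup.mk' D' ⟨c, hcS⟩ with ha
  have haa : a * a = 1 := by
    rw [ha, ← map_mul, show (⟨c, hcS⟩ : (S : Subgroup G)) * ⟨c, hcS⟩ = 1 from Subtype.ext hc, map_one]
  have hcinv : c⁻¹ = c := inv_eq_of_mul_eq_one_right hc
  have hval : τ c = a ^ (S : Subgroup G).index := by
    refine CfsgLib.Transfer.transfer_of_sq_eq_one _ hc haa fun g hg => ?_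
    refine QuotientGroup.eq.2 ?_
    show (g⁻¹ * c * g)⁻¹ * c ∈ D
    rw [show (g⁻¹ * c * g)⁻¹ = g⁻¹ * c * g by simp [mul_assoc, hcinv]]
    simpa using hconj g⁻¹ (by simpa using hg)
  obtain ⟨j, hj⟩ : Odd (S : Subgroup G).index :=
    Nat.not_even_iff_odd.1 fun h => S.not_dvd_index h.two_dvd
  have hτc : τ c = a := by rw [hval, hj, pow_succ, pow_mul, pow_two, haa, one_pow, one_mul]
  intro hmem
  have hle : oddGen G ≤ τ.ker := (Subgroup.closure_le _).2 fun g (hg : Odd (orderOf g)) => by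
    show τ g = 1
    obtain ⟨k, hk⟩ := IsPGroup.iff_orderOf.1 (S.isPGroup'.to_quotient D') (τ g)
    have hdvd : orderOf (τ g) ∣ orderOf g := orderOf_map_dvd τ g
    rw [← orderOf_eq_one_iff, hk]
    rcases Nat.eq_zero_or_pos k with rfl | hpos
    · exact pow_zero 2
    · exact absurd (even_iff_two_dvd.2 ((dvd_pow_self 2 hpos.ne').trans (hk ▸ hdvd)))
        (Nat.not_even_iff_odd.2 hg)
  refine hcD ?_
  have h1 : a = 1 := hτc.symm.trans (hle hmem)
  exact (QuotientGroup.eq_one_iff (N := D') ⟨c, hcS⟩).1 h1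

/-- Two models of `S₄ × Z₂`. -/
structure Pair48 (T : Subgroup G) {P₁ P₂ : Subgroup G} (m₁ : Mdl P₁) (m₂ : Mdl P₂) : Prop
    extends Pair T m₁ m₂ where
  c₁_ne : m₁.c ≠ 1
  c₂_ne : m₂.c ≠ 1
  card₁ : Nat.card P₁ = 48
  card₂ : Nat.card P₂ = 48

variable {T P₁ P₂ : Subgroup G} {m₁ : Mdl P₁} {m₂ : Mdl P₂} {d : G}

namespace Pair48

theorem symm (h : Pair48 T m₁ m₂) : Pair48 T m₂ m₁ := ⟨h.toPair.symm, h.c₂_ne, h.c₁_ne, h.card₂, h.card₁⟩

variable (h : Pair48 T m₁ m₂)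
include h

theorem c_mem_T : m₁.c ∈ T := h.E_le_T m₁.c_mem_E

theorem c_comm_T {t : G} (ht : t ∈ T) : t * m₁.c = m₁.c * t := m₁.c_comm t (h.le₁ ht)

theorem mem_of_commute {g : G} (hg : g * m₁.c = m₁.c * g) : g ∈ P₁ := by
  have h2 : IsPGroup 2 (Subgroup.zpowers m₁.c) := m₁.E_isPGroup.to_le (Subgroup.zpowers_le.2 m₁.c_mem_E)
  have hn : ∀ k, k * m₁.c = m₁.c * k → k ∈ Subgroup.normalizer (Subgroup.zpowers m₁.c : Set G) := fun k hk =>
    mem_normalizer_of_conj fun w hw => by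
      rcases zpowers_cases m₁.c_sq hw with rfl | rfl
      · rw [mul_one, mul_inv_cancel]; exact one_mem _
      · rw [conj_fix_iff.2 hk]; exact Subgroup.mem_zpowers _
  have h1 := normalizer_eq_of_maximal h.max₁ h2 (fun e => h.c₁_ne (by
    have := Subgroup.mem_zpowers m₁.c
    rwa [e, Subgroup.mem_bot] at this)) (fun k hk => hn k (m₁.c_comm k hk))
  rw [← h1]
  exact hn g hg

theorem c_notMem_V : m₁.c ∉ m₁.V := by
  rintro ⟨p, -, hp⟩
  refine h.c₁_ne ?_
  have h1 : m₁.π ⟨m₁.s p, m₁.s_mem p⟩ = m₁.π ⟨m₁.c, m₁.c_mem⟩ := congrArg m₁.π (Subtype.ext hp)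
  rw [m₁.π_s, m₁.π_c] at h1
  rw [← hp, h1, map_one]

theorem card_E : Nat.card m₁.E = 8 := by
  have hord : orderOf m₁.c = 2 := orderOf_eq_prime (by rw [pow_two]; exact m₁.c_sq) h.c₁_ne
  have hinf : (m₁.V ⊓ Subgroup.zpowers m₁.c : Subgroup G) = ⊥ := le_bot_iff.1 fun x hx => by
    rcases zpowers_cases m₁.c_sq hx.2 with rfl | rfl
    · exact one_mem _
    · exact absurd hx.1 h.c_notMem_V
  have h1 := CfsgLib.ZJ.card_sup_mul_card_inf_of_le_normalizer (A := m₁.V) (B := Subgroup.zpowers m₁.c)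
    (fun v hv => mem_normalizer_of_conj fun w hw => by
      rcases zpowers_cases m₁.c_sq hw with rfl | rfl
      · rw [mul_one, mul_inv_cancel]; exact one_mem _
      · rw [conj_fix_iff.2 (m₁.c_comm v (m₁.V_le hv))]; exact Subgroup.mem_zpowers _)
  rw [hinf, Subgroup.card_bot, mul_one, ← m₁.E_eq, m₁.card_V, Nat.card_zpowers, hord] at h1
  exact h1

theorem card_T : Nat.card T = 16 := by
  haveI : Fact (Nat.Prime 2) := ⟨Nat.prime_two⟩
  obtain ⟨hTP, hT2, hodd⟩ := h.syl₁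
  obtain ⟨k, hk⟩ := IsPGroup.iff_card.1 hT2
  have h1 := Subgroup.relIndex_mul_relIndex ⊥ T P₁ bot_le hTP
  rw [Subgroup.relIndex_bot_left, Subgroup.relIndex_bot_left, hk, h.card₁] at h1
  rw [hk]
  obtain ⟨j, hj⟩ := hodd
  rw [hj] at h1
  have hk6 : k < 6 := by
    by_contra hc
    push Not at hc
    have := (pow_dvd_pow 2 hc).trans (Dvd.intro _ h1)
    norm_num at this
  interval_cases k <;> omega

theorem c₂_mem_E : m₂.c ∈ m₁.E :=
  m₁.mem_E_of_centralizes (h.le₁ (h.symm.c_mem_T)) fun _ hv => h.symm.c_comm_T (h.V_le_T hv)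

theorem c_ne_c : m₁.c ≠ m₂.c := fun e =>
  h.ne (h.max₂.2 P₁ h.max₁.1 fun g hg => h.mem_of_commute (e ▸ m₂.c_comm g hg))

theorem c_central {y : G} (hy : y ∈ T) (hyc : ∀ t ∈ T, t * y = y * t) (hd : IsD m₁ m₂ d) :
    y = 1 ∨ y = d ∨ y = m₁.c ∨ y = d * m₁.c := by
  obtain ⟨t, ht, htE⟩ := SetLike.not_le_iff_exists.1 h.V_not_le
  exact h.toPair.E_fixed hd (h.toPair.symm.V_le_T ht) htE
    (m₁.mem_E_of_centralizes (h.le₁ hy) fun v hv => hyc v (h.V_le_T hv))
    (hyc t (h.toPair.symm.V_le_T ht)).symm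

variable (hd : IsD m₁ m₂ d)
include hd

theorem c₂_eq : m₂.c = d * m₁.c := by
  rcases h.c_central h.symm.c_mem_T (fun t ht => h.symm.c_comm_T ht) hd with e | e | e | e
  · exact absurd e h.c₂_ne
  · exact absurd (e ▸ hd.2.2) h.symm.c_notMem_V
  · exact absurd e.symm h.c_ne_c
  · exact e

theorem d_c_comm : d * m₁.c = m₁.c * d := h.c_comm_T (h.toPair.d_mem hd)

theorem EE_cases {a : G} (ha₁ : a ∈ m₁.E) (ha₂ : a ∈ m₂.E) : a = 1 ∨ a = d ∨ a = m₁.c ∨ a = d * m₁.c := by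
  obtain ⟨t, ht, htE⟩ := SetLike.not_le_iff_exists.1 h.V_not_le
  exact h.toPair.E_fixed hd (h.toPair.symm.V_le_T ht) htE ha₁ (m₂.E_comm ha₂ (m₂.V_le_E ht))

theorem exists_mul : m₁.E ⊔ m₂.E = T ∧ ∀ x ∈ T, ∃ a ∈ m₁.E, ∃ b ∈ m₂.E, x = a * b := by
  have hn : m₁.E ≤ Subgroup.normalizer (m₂.E : Set G) := (h.E_le_T.trans h.le₂).trans m₂.E_normal
  have h1 := CfsgLib.ZJ.card_sup_mul_card_inf_of_le_normalizer hn
  have h2 := card_le_four (K := m₁.E ⊓ m₂.E) fun a ha => h.EE_cases hd ha.1 ha.2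
  have hle : m₁.E ⊔ m₂.E ≤ T := sup_le h.E_le_T h.toPair.symm.E_le_T
  rw [h.card_E, h.symm.card_E] at h1
  have hsup : m₁.E ⊔ m₂.E = T := Subgroup.eq_of_le_of_card_ge hle (by rw [h.card_T]; nlinarith)
  refine ⟨hsup, fun x hx => ?_⟩
  rw [← hsup, ← SetLike.mem_coe, Subgroup.coe_mul_of_left_le_normalizer_right _ _ hn, Set.mem_mul] at hx
  obtain ⟨a, ha, b, hb, rfl⟩ := hx
  exact ⟨a, ha, b, hb, rfl⟩

theorem mem_E_or {x : G} (hx : x ∈ T) (hx2 : x * x = 1) : x ∈ m₁.E ∨ x ∈ m₂.E := by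
  obtain ⟨a, ha, b, hb, rfl⟩ := (h.exists_mul hd).2 x hx
  by_cases hbE : b ∈ m₁.E
  · exact Or.inl (mul_mem ha hbE)
  refine Or.inr (mul_mem ?_ hb)
  have hab : a * b = b * a := by
    rw [← inv_eq_of_mul_eq_one_right hx2, mul_inv_rev, inv_eq_of_mul_eq_one_right (m₁.E_sq ha),
      inv_eq_of_mul_eq_one_right (m₂.E_sq hb)]
  have hd2 : d ∈ m₂.E := m₂.V_le_E hd.2.2
  rcases h.toPair.E_fixed hd (h.toPair.symm.E_le_T hb) hbE ha hab with rfl | rfl | rfl | rfl
  exacts [one_mem _, hd2, h.symm.c₂_mem_E, mul_mem hd2 h.symm.c₂_mem_E]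

theorem c_notMem_D : m₁.c ∉ m₁.V ⊔ m₂.V := by
  intro hc
  rw [← SetLike.mem_coe, Subgroup.coe_mul_of_left_le_normalizer_right _ _
    ((h.V_le_T.trans h.le₂).trans m₂.V_normal), Set.mem_mul] at hc
  obtain ⟨a, ha, b, hb, hab⟩ := hc
  have hbE : b ∈ m₁.E := by
    rw [show b = a⁻¹ * m₁.c by rw [← hab, inv_mul_cancel_left]]
    exact mul_mem (inv_mem (m₁.V_le_E ha)) m₁.c_mem_E
  rcases h.EE_cases hd hbE (m₂.V_le_E hb) with rfl | rfl | rfl | rfl
  · rw [mul_one] at hab; exact h.c_notMem_V (hab ▸ ha)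
  · exact h.c_notMem_V (hab ▸ mul_mem ha hd.2.1)
  · have := mul_mem hd.2.2 hb
    rw [← h.c₂_eq hd] at this
    exact h.symm.c_notMem_V this
  · rw [← h.c₂_eq hd] at hb
    exact h.symm.c_notMem_V hb

theorem conj_V {v : G} (hv : v ∈ m₁.V) (hv1 : v ≠ 1) : IsConj d v := by
  obtain ⟨g, -, hg⟩ := m₁.V_transitive hd.2.1 hv hd.1 hv1
  exact isConj_iff.2 ⟨g, hg⟩

theorem d_c₂ : d * m₂.c = m₁.c := h.symm.c₂_eq hd.symm |>.symm

/-- Conjugates of `c` in `T` lie in the coset `c D`. -/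
theorem mul_c_mem {y : G} (hn : ¬ IsConj m₁.c d) (hyT : y ∈ T) (hy : IsConj m₁.c y) :
    y * m₁.c ∈ m₁.V ⊔ m₂.V := by
  obtain ⟨g, hg⟩ := isConj_iff.1 hy
  have hy2 : y * y = 1 := by rw [← hg, conj_mul, m₁.c_sq]; group
  have hy1 : y ≠ 1 := fun e => h.c₁_ne (conj_eq_one_iff.1 (hg.trans e))
  rcases h.mem_E_or hd hyT hy2 with hE | hE
  · rcases m₁.E_cases hE with hv | hv
    · exact absurd (hy.trans (h.conj_V hd hv hy1).symm) hn
    · exact Subgroup.mem_sup_left hv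
  · rcases m₂.E_cases hE with hv | hv
    · exact absurd (hy.trans (h.symm.conj_V hd.symm hv hy1).symm) hn
    · rw [← h.d_c₂ hd, h.symm.d_c_comm hd.symm, ← mul_assoc]
      exact mul_mem (Subgroup.mem_sup_right hv) (Subgroup.mem_sup_left hd.2.1)

theorem mem_V_of_isConj {y : G} (hn₁ : ¬ IsConj m₁.c d) (hn₂ : ¬ IsConj m₂.c d) (hy : y ∈ m₂.E)
    (hyd : IsConj d y) : y ∈ m₂.V := by
  rcases m₂.E_cases hy with hv | hv
  · exact hv
  have ey : y = y * m₂.c * m₂.c := by rw [mul_assoc, m₂.c_sq, mul_one]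
  by_cases h1 : y * m₂.c = 1
  · rw [h1, one_mul] at ey
    exact absurd (ey ▸ hyd).symm hn₂
  obtain ⟨g, hgP, hg⟩ := m₂.V_transitive hd.2.2 hv hd.1 h1
  refine absurd ((isConj_iff.2 ⟨g, ?_⟩ : IsConj m₁.c y).trans hyd.symm) hn₁
  rw [← h.d_c₂ hd, ← conj_mul, hg, conj_fix_iff.2 (m₂.c_comm g hgP), ← ey]

omit hd

/-- An element carrying `c₁` to `c₂` carries `E₁` into `E₂`. -/
theorem conj_E {g : G} (hg : g * m₁.c * g⁻¹ = m₂.c) {e : G} (he : e ∈ m₁.E) : g * e * g⁻¹ ∈ m₂.E := by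
  have hto : ∀ k ∈ P₁, g * k * g⁻¹ ∈ P₂ := fun k hk => h.symm.mem_of_commute (by
    rw [← hg, conj_mul, conj_mul, m₁.c_comm k hk])
  have hfrom : ∀ k ∈ P₂, g⁻¹ * k * g ∈ P₁ := fun k hk => h.mem_of_commute (by
    have e' : m₁.c = g⁻¹ * m₂.c * g := by rw [← hg]; group
    rw [e', show g⁻¹ * k * g * (g⁻¹ * m₂.c * g) = g⁻¹ * (k * m₂.c) * g by group,
      show g⁻¹ * m₂.c * g * (g⁻¹ * k * g) = g⁻¹ * (m₂.c * k) * g by group, m₂.c_comm k hk])
  refine m₂.le_E (X := m₁.E.map (MulAut.conj g).toMonoidHom) ?_ (m₁.E_isPGroup.map _) ?_ ⟨e, he, rfl⟩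
  · rintro _ ⟨a, ha, rfl⟩
    exact hto a (m₁.E_le ha)
  · intro k hk
    refine mem_normalizer_of_conj ?_
    rintro _ ⟨a, ha, rfl⟩
    refine ⟨_, conj_mem (m₁.E_normal (hfrom k hk)) ha, ?_⟩
    show g * (g⁻¹ * k * g * a * (g⁻¹ * k * g)⁻¹) * g⁻¹ = k * (g * a * g⁻¹) * k⁻¹
    group

theorem not_conj_d (S : Sylow 2 G) (hS : 16 < Nat.card (S : Subgroup G))
    (hdS : ∀ s ∈ (S : Subgroup G), s * d = d * s) : ¬ IsConj m₁.c d := by
  intro hconj
  obtain ⟨g, hg⟩ := isConj_iff.1 hconj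
  have hle : (S : Subgroup G).map (MulAut.conj g⁻¹).toMonoidHom ≤ P₁ := by
    rintro _ ⟨s, hs, rfl⟩
    refine h.mem_of_commute ?_
    show g⁻¹ * s * g⁻¹⁻¹ * m₁.c = m₁.c * (g⁻¹ * s * g⁻¹⁻¹)
    rw [show m₁.c = g⁻¹ * d * g⁻¹⁻¹ by rw [← hg]; group, conj_mul, conj_mul, hdS s hs]
  obtain ⟨l, -, hlT⟩ := (isSyl_of_isSylowTwoIn h.syl₁).exists_conj hle (S.isPGroup'.map _)
  have h1 : ((S : Subgroup G).map (MulAut.conj g⁻¹).toMonoidHom).map (MulAut.conj l).toMonoidHom ≤ T := by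
    rintro _ ⟨w, hw, rfl⟩
    exact hlT w hw
  have h2 := Subgroup.card_le_of_le h1
  rw [card_map_conj, card_map_conj, h.card_T] at h2
  omega

end Pair48

theorem Pair48.c_notMem_oddGen (h : Pair48 T m₁ m₂)
    (hZ : ∀ S : Sylow 2 G, ∀ g : G, (∀ z ∈ (S : Subgroup G), z * z = 1 →
      (∀ s ∈ (S : Subgroup G), s * z = z * s) → z * g = g * z) → g ∈ Subgroup.normalizer ((S : Subgroup G) : Set G)) :
    m₁.c ∉ oddGen G := by
  haveI : Fact (Nat.Prime 2) := ⟨Nat.prime_two⟩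
  obtain ⟨d, hd, u, hu, v, hv, huv⟩ := h.toPair.exists_d
  have hT2 : IsPGroup 2 T := h.syl₁.2.1
  have hdfix : ∀ a ∈ Subgroup.normalizer (T : Set G), a * d * a⁻¹ = d := fun a ha => by
    have e : a * d * a⁻¹ = (a * u * a⁻¹) * (a * v * a⁻¹) * (a * u * a⁻¹)⁻¹ * (a * v * a⁻¹)⁻¹ := by
      rw [huv]; group
    rcases h.toPair.comm_cases hd (conj_mem ha hu) (conj_mem ha hv) with e' | e'
    · exact absurd (conj_eq_one_iff.1 (e.trans e')) hd.1
    · exact e.trans e'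
  obtain ⟨S, hTS⟩ := hT2.exists_le_sylow
  have hDT : m₁.V ⊔ m₂.V ≤ T := sup_le h.V_le_T h.toPair.symm.V_le_T
  have hTD : T ≤ Subgroup.normalizer ((m₁.V ⊔ m₂.V : Subgroup G) : Set G) := fun t ht =>
    sup_le_normalizer (m₁.V_normal (h.le₁ ht)) (m₂.V_normal (h.le₂ ht))
  have hTcomm : ∀ a ∈ T, ∀ b ∈ T, a * b * a⁻¹ * b⁻¹ ∈ m₁.V ⊔ m₂.V := fun a ha b hb =>
    Subgroup.mem_sup_left (m₁.comm_mem_V h.le₁ hT2 ha hb)
  by_cases hST : (S : Subgroup G) = T
  · refine notMem_oddGen_of_transfer S (hST ▸ hTD) (hST ▸ hTcomm) m₁.c_sq (hTS h.c_mem_T) (h.c_notMem_D hd)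
      fun g hg => h.mul_c_mem hd ?_ (hST ▸ hg) (isConj_iff.2 ⟨g, rfl⟩)
    intro hconj
    obtain ⟨x, hx⟩ := isConj_iff.1 hconj
    have hfixset : ∀ y : G, (∀ t ∈ T, t * y = y * t) → (S : Subgroup G) ≤ Subgroup.normalizer ({y} : Set G) := by
      intro y hy s hs
      rw [Subgroup.mem_set_normalizer_iff]
      intro w
      rw [Set.mem_singleton_iff, Set.mem_singleton_iff]
      constructor
      · rintro rfl
        exact conj_fix_iff.2 (hy s (hST ▸ hs))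
      · intro hw
        exact mul_left_cancel (mul_right_cancel (hw.trans (conj_fix_iff.2 (hy s (hST ▸ hs))).symm))
    obtain ⟨n, hn, hne⟩ := CfsgLib.Transfer.burnside_fusion_image S (A := ({m₁.c} : Set G)) (g := x)
      (hfixset _ fun t ht => h.c_comm_T ht)
      (by rw [Set.image_singleton, hx]; exact hfixset _ fun t ht => h.toPair.d_central hd ht)
    rw [Set.image_singleton, Set.image_singleton, Set.singleton_eq_singleton_iff, hx] at hne
    have h2 := hdfix n (hST ▸ hn)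
    exact h.c_notMem_V (mul_left_cancel (mul_right_cancel (hne.trans h2.symm)) ▸ hd.2.1)
  -- `T` is properly contained in `S`
  have hswap : ∀ a ∈ (S : Subgroup G), a ∈ Subgroup.normalizer (T : Set G) → a ∉ T →
      a * m₁.c * a⁻¹ = m₂.c := by
    intro a haS han haT
    have hy : ∀ t ∈ T, t * (a * m₁.c * a⁻¹) = a * m₁.c * a⁻¹ * t := fun t ht => by
      have h1 := h.c_comm_T (conj_mem' han ht)
      calc t * (a * m₁.c * a⁻¹) = a * (a⁻¹ * t * a * m₁.c) * a⁻¹ := by group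
        _ = _ := by rw [h1]; group
    rcases h.c_central (conj_mem han h.c_mem_T) hy hd with e | e | e | e
    · exact absurd (conj_eq_one_iff.1 e) h.c₁_ne
    · have h2 := hdfix a han
      exact absurd (mul_left_cancel (mul_right_cancel (e.trans h2.symm)) ▸ hd.2.1) h.c_notMem_V
    · exact absurd (mem_of_two_power h.syl₁ (h.mem_of_commute (conj_fix_iff.1 e))
        (S.isPGroup'.to_le (Subgroup.zpowers_le.2 haS)) han) haT
    · exact e.trans (h.c₂_eq hd).symm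
  have hswap' : ∀ a ∈ (S : Subgroup G), a ∈ Subgroup.normalizer (T : Set G) → a ∉ T →
      a * m₂.c * a⁻¹ = m₁.c := by
    intro a haS han haT
    rw [h.c₂_eq hd, ← conj_mul, hdfix a han, hswap a haS han haT]
    exact h.d_c₂ hd
  obtain ⟨x, ⟨hxS, hxn⟩, hxT⟩ := CfsgLib.SolvFactor.lt_inf_normalizer S.isPGroup' hTS (Ne.symm hST)
  set R : Subgroup G := (S : Subgroup G) ⊓ Subgroup.normalizer (T : Set G) with hR
  have hRcases : ∀ a ∈ R, a ∈ T ∨ x⁻¹ * a ∈ T := fun a ha => by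
    by_cases haT : a ∈ T
    · exact Or.inl haT
    refine Or.inr (mem_of_two_power h.syl₁ (h.mem_of_commute (conj_fix_iff.1 ?_))
      (S.isPGroup'.to_le (Subgroup.zpowers_le.2 (mul_mem (inv_mem hxS) ha.1))) (mul_mem (inv_mem hxn) ha.2))
    rw [show x⁻¹ * a * m₁.c * (x⁻¹ * a)⁻¹ = x⁻¹ * (a * m₁.c * a⁻¹) * x by group, hswap a ha.1 ha.2 haT,
      ← hswap x hxS hxn hxT]
    group
  have hEight : ∀ A : Subgroup G, A ≤ R → (∀ a ∈ A, a * a = 1) → (∀ a ∈ A, ∀ b ∈ A, a * b = b * a) →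
      Nat.card A = 8 → A ≤ T := by
    intro A hAR hsq hc hA8 a haA
    by_contra haT
    have hfix : ∀ b ∈ A, b ∈ T → b = 1 ∨ b = d := by
      intro b hbA hbT
      have hb : a * b * a⁻¹ = b := conj_fix_iff.2 (hc a haA b hbA)
      have h1 := hswap a (hAR haA).1 (hAR haA).2 haT
      have h2 := hswap' a (hAR haA).1 (hAR haA).2 haT
      have hboth : b ∈ m₁.E ∧ b ∈ m₂.E := by
        rcases h.mem_E_or hd hbT (hsq b hbA) with hE | hE
        · exact ⟨hE, hb ▸ h.conj_E h1 hE⟩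
        · exact ⟨hb ▸ h.symm.conj_E h2 hE, hE⟩
      rcases h.EE_cases hd hboth.1 hboth.2 with e | e | e | e
      · exact Or.inl e
      · exact Or.inr e
      · rw [e, h1] at hb; exact absurd hb.symm h.c_ne_c
      · rw [e, ← h.c₂_eq hd, h2] at hb; exact absurd hb h.c_ne_c
    have h4 := card_le_four (K := A) (a := 1) (b := d) (c := a) (e := a * d) fun b hbA => by
      by_cases hbT : b ∈ T
      · rcases hfix b hbA hbT with e | e
        exacts [Or.inl e, Or.inr (Or.inl e)]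
      have hxa : x⁻¹ * a ∈ T := (hRcases a (hAR haA)).resolve_left haT
      have hxb : x⁻¹ * b ∈ T := (hRcases b (hAR hbA)).resolve_left hbT
      have hab : a⁻¹ * b ∈ T := by
        have := mul_mem (inv_mem hxa) hxb
        simpa [mul_assoc] using this
      rcases hfix _ (mul_mem (inv_mem haA) hbA) hab with e | e
      · exact Or.inr (Or.inr (Or.inl (inv_mul_eq_one.1 e).symm))
      · exact Or.inr (Or.inr (Or.inr (inv_mul_eq_iff_eq_mul.1 e)))
    omega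
  have hEightE : ∀ z : G, (∀ e ∈ m₁.E, z * e * z⁻¹ ∈ R) → m₁.E.map (MulAut.conj z).toMonoidHom ≤ T := fun z hz =>
    hEight _ (by rintro _ ⟨e, he, rfl⟩; exact hz e he)
      (by rintro _ ⟨e, he, rfl⟩; rw [← map_mul, m₁.E_sq he, map_one])
      (by rintro _ ⟨e, he, rfl⟩ _ ⟨f, hf, rfl⟩; rw [← map_mul, ← map_mul, m₁.E_comm he hf])
      (by rw [card_map_conj, h.card_E])
  have hEightE' : ∀ z : G, (∀ e ∈ m₂.E, z * e * z⁻¹ ∈ R) → m₂.E.map (MulAut.conj z).toMonoidHom ≤ T := fun z hz =>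
    hEight _ (by rintro _ ⟨e, he, rfl⟩; exact hz e he)
      (by rintro _ ⟨e, he, rfl⟩; rw [← map_mul, m₂.E_sq he, map_one])
      (by rintro _ ⟨e, he, rfl⟩ _ ⟨f, hf, rfl⟩; rw [← map_mul, ← map_mul, m₂.E_comm he hf])
      (by rw [card_map_conj, h.symm.card_E])
  have hRS : R = S := by
    by_contra hne
    obtain ⟨z, ⟨hzS, hzn⟩, hzR⟩ := CfsgLib.SolvFactor.lt_inf_normalizer S.isPGroup' inf_le_left hne
    refine hzR ⟨hzS, mem_normalizer_of_conj fun t ht => ?_⟩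
    have hTR : T ≤ R := le_inf hTS Subgroup.le_normalizer
    have h1 : (m₁.E ⊔ m₂.E).map (MulAut.conj z).toMonoidHom ≤ T := by
      rw [Subgroup.map_sup]
      exact sup_le (hEightE z fun e he => conj_mem hzn (hTR (h.E_le_T he)))
        (hEightE' z fun e he => conj_mem hzn (hTR (h.toPair.symm.E_le_T he)))
    exact h1 ⟨t, (h.exists_mul hd).1.symm ▸ ht, rfl⟩
  have hSn : ∀ s ∈ (S : Subgroup G), s ∈ Subgroup.normalizer (T : Set G) := fun s hs => (hRS.ge hs).2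
  have hdS : ∀ s ∈ (S : Subgroup G), s * d = d * s := fun s hs => conj_fix_iff.1 (hdfix s (hSn s hs))
  have hScard : 16 < Nat.card (S : Subgroup G) := by
    rw [← h.card_T]
    rcases lt_or_ge (Nat.card T) (Nat.card (S : Subgroup G)) with hlt | hge
    · exact hlt
    · exact absurd (Subgroup.eq_of_le_of_card_ge hTS hge).symm hST
  have hn₁ : ¬ IsConj m₁.c d := h.not_conj_d S hScard hdS
  have hn₂ : ¬ IsConj m₂.c d := h.symm.not_conj_d S hScard hdS
  have hCd : ∀ g : G, d * g = g * d → g ∈ Subgroup.normalizer ((S : Subgroup G) : Set G) := by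
    intro g hg
    refine hZ S g fun z hz hz2 hzc => ?_
    have hzT : z ∈ T := mem_of_two_power h.syl₁ (h.mem_of_commute (hzc _ (hTS h.c_mem_T)).symm)
      (S.isPGroup'.to_le (Subgroup.zpowers_le.2 hz)) (hSn z hz)
    have hxz : x * z * x⁻¹ = z := conj_fix_iff.2 (hzc x hxS)
    rcases h.c_central hzT (fun t ht => hzc t (hTS ht)) hd with e | e | e | e
    · rw [e, one_mul, mul_one]
    · rw [e]; exact hg
    · rw [e, hswap x hxS hxn hxT] at hxz; exact absurd hxz.symm h.c_ne_c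
    · rw [e, ← h.c₂_eq hd, hswap' x hxS hxn hxT] at hxz; exact absurd hxz h.c_ne_c
  have hVx : ∀ s ∈ (S : Subgroup G), s ∈ Subgroup.normalizer ((m₁.V ⊔ m₂.V : Subgroup G) : Set G) := by
    intro s hs
    by_cases hsT : s ∈ T
    · exact hTD hsT
    have h1 := hswap s hs (hSn s hs) hsT
    have h2 := hswap' s hs (hSn s hs) hsT
    refine mem_normalizer_of_conj fun w hw => ?_
    have hle : (m₁.V ⊔ m₂.V).map (MulAut.conj s).toMonoidHom ≤ m₁.V ⊔ m₂.V := by
      rw [Subgroup.map_sup]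
      refine sup_le ?_ ?_
      · rintro _ ⟨a, ha, rfl⟩
        by_cases ha1 : a = 1
        · rw [ha1, map_one]; exact one_mem _
        exact Subgroup.mem_sup_right (h.mem_V_of_isConj hd hn₁ hn₂ (h.conj_E h1 (m₁.V_le_E ha))
          ((h.conj_V hd ha ha1).trans (isConj_iff.2 ⟨s, rfl⟩)))
      · rintro _ ⟨a, ha, rfl⟩
        by_cases ha1 : a = 1
        · rw [ha1, map_one]; exact one_mem _
        exact Subgroup.mem_sup_left (h.symm.mem_V_of_isConj hd.symm hn₂ hn₁ (h.symm.conj_E h2 (m₂.V_le_E ha))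
          ((h.symm.conj_V hd.symm ha ha1).trans (isConj_iff.2 ⟨s, rfl⟩)))
    exact hle ⟨w, hw, rfl⟩
  refine notMem_oddGen_of_transfer S hVx ?_ m₁.c_sq (hTS h.c_mem_T) (h.c_notMem_D hd) fun g hg =>
    h.mul_c_mem hd hn₁ ?_ (isConj_iff.2 ⟨g, rfl⟩)
  · -- the quotient by `V₁ V₂` is abelian
    set D : Subgroup G := m₁.V ⊔ m₂.V
    let D' : Subgroup (S : Subgroup G) := D.subgroupOf S
    haveI : D'.Normal := ⟨fun n hn' s => (conj_mem (V := D) (g := (s : G)) (v := (n : G)) (hVx _ s.2) hn' : _)⟩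
    let π : (S : Subgroup G) →* (S : Subgroup G) ⧸ D' := QuotientGroup.mk' D'
    set X : (S : Subgroup G) ⧸ D' := π ⟨x, hxS⟩
    set C : (S : Subgroup G) ⧸ D' := π ⟨m₁.c, hTS h.c_mem_T⟩
    have hTcase : ∀ t, ∀ ht : t ∈ T, π ⟨t, hTS ht⟩ ∈ Subgroup.zpowers C := fun t ht => by
      obtain ⟨p, hp, q, hq, rfl⟩ := (h.exists_mul hd).2 t ht
      have key : ∀ y, ∀ hy : y ∈ T, (y ∈ D ∨ y * m₁.c ∈ D) → π ⟨y, hTS hy⟩ ∈ Subgroup.zpowers C := by
        rintro y hy (hyD | hyD)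
        · rw [show π ⟨y, hTS hy⟩ = 1 from
            (QuotientGroup.eq_one_iff (N := D') (⟨y, hTS hy⟩ : (S : Subgroup G))).2 hyD]
          exact one_mem _
        · have : π (⟨y, hTS hy⟩ * ⟨m₁.c, hTS h.c_mem_T⟩) = 1 :=
            (QuotientGroup.eq_one_iff (N := D') _).2 hyD
          rw [map_mul] at this
          rw [eq_inv_of_mul_eq_one_left this]
          exact inv_mem (Subgroup.mem_zpowers C)
      have hp' : p ∈ D ∨ p * m₁.c ∈ D := (m₁.E_cases hp).imp Subgroup.mem_sup_left Subgroup.mem_sup_left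
      have hq' : q ∈ D ∨ q * m₁.c ∈ D := (m₂.E_cases hq).imp Subgroup.mem_sup_right fun hv => by
        rw [← h.d_c₂ hd, h.symm.d_c_comm hd.symm, ← mul_assoc]
        exact mul_mem (Subgroup.mem_sup_right hv) (Subgroup.mem_sup_left hd.2.1)
      rw [show (⟨p * q, hTS ht⟩ : (S : Subgroup G)) =
        ⟨p, hTS (h.E_le_T hp)⟩ * ⟨q, hTS (h.toPair.symm.E_le_T hq)⟩ from rfl, map_mul]
      exact mul_mem (key p (h.E_le_T hp) hp') (key q (h.toPair.symm.E_le_T hq) hq')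
    have hXC : Commute X C := by
      show π ⟨x, hxS⟩ * π ⟨m₁.c, _⟩ = π ⟨m₁.c, _⟩ * π ⟨x, hxS⟩
      rw [← map_mul, ← map_mul, eq_comm]
      refine QuotientGroup.eq.2 ?_
      show (m₁.c * x)⁻¹ * (x * m₁.c) ∈ D
      have e : x * m₁.c = m₂.c * x := by rw [← hswap x hxS hxn hxT]; group
      rw [e, show (m₁.c * x)⁻¹ * (m₂.c * x) = x⁻¹ * (m₁.c⁻¹ * m₂.c) * x by group]
      refine conj_mem' (hVx x hxS) ?_
      rw [h.c₂_eq hd, h.d_c_comm hd, inv_mul_cancel_left]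
      exact Subgroup.mem_sup_left hd.2.1
    have hgen : ∀ s : (S : Subgroup G), ∃ e f, e ∈ Subgroup.zpowers X ∧ f ∈ Subgroup.zpowers C ∧ π s = e * f := by
      intro s
      rcases hRcases s (hRS.ge s.2) with hs | hs
      · exact ⟨1, _, one_mem _, hTcase _ hs, (one_mul _).symm⟩
      · refine ⟨X, _, Subgroup.mem_zpowers X, hTcase _ hs, ?_⟩
        rw [← map_mul]
        exact congrArg π (Subtype.ext (mul_inv_cancel_left x (s : G)).symm)
    intro a ha b hb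
    have hab : Commute (π ⟨a, ha⟩) (π ⟨b, hb⟩) := by
      obtain ⟨e, f, he, hf, h1⟩ := hgen ⟨a, ha⟩
      obtain ⟨e', f', he', hf', h2⟩ := hgen ⟨b, hb⟩
      obtain ⟨i, rfl⟩ := Subgroup.mem_zpowers_iff.1 he
      obtain ⟨j, rfl⟩ := Subgroup.mem_zpowers_iff.1 hf
      obtain ⟨i', rfl⟩ := Subgroup.mem_zpowers_iff.1 he'
      obtain ⟨j', rfl⟩ := Subgroup.mem_zpowers_iff.1 hf'
      rw [h1, h2]
      exact Commute.mul_left (Commute.mul_right ((Commute.refl X).zpow_zpow i i') (hXC.zpow_zpow i j'))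
        (Commute.mul_right (hXC.symm.zpow_zpow j i') ((Commute.refl C).zpow_zpow j j'))
    have h1 : π (⟨a, ha⟩ * ⟨b, hb⟩ * ⟨a, ha⟩⁻¹ * ⟨b, hb⟩⁻¹) = 1 := by
      rw [map_mul, map_mul, map_mul, map_inv, map_inv, hab.eq]
      group
    exact (QuotientGroup.eq_one_iff (N := D') _).1 h1
  · -- conjugates of `c` in `S` lie in `T`
    set y := g * m₁.c * g⁻¹ with hy
    have huP : g⁻¹ * d * g ∈ P₁ := h.mem_of_commute (by
      have e : y * d = d * y := hdS y hg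
      rw [hy] at e
      calc g⁻¹ * d * g * m₁.c = g⁻¹ * (d * (g * m₁.c * g⁻¹)) * g := by group
        _ = _ := by rw [← e]; group)
    have hd2 : d * d = 1 := m₁.V_sq hd.2.1
    obtain ⟨k, hk, hkT⟩ := (isSyl_of_isSylowTwoIn h.syl₁).exists_conj (P := Subgroup.zpowers (g⁻¹ * d * g))
      (Subgroup.zpowers_le.2 huP) (fun w => ⟨1, Subtype.ext (by
        have hw : (w : G) = 1 ∨ (w : G) = g⁻¹ * d * g := zpowers_cases
          (by rw [show g⁻¹ * d * g * (g⁻¹ * d * g) = g⁻¹ * (d * d) * g by group, hd2]; group) w.2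
        show (w : G) ^ 2 ^ 1 = 1
        rw [pow_one, pow_two]
        rcases hw with e | e <;> rw [e]
        · exact one_mul 1
        · rw [show g⁻¹ * d * g * (g⁻¹ * d * g) = g⁻¹ * (d * d) * g by group, hd2]; group)⟩)
    have hkc : k * m₁.c = m₁.c * k := m₁.c_comm k hk
    have hzT := hkT _ (Subgroup.mem_zpowers _)
    set z := k * (g⁻¹ * d * g) * k⁻¹ with hz
    have hz2 : z * z = 1 := by
      rw [hz, show k * (g⁻¹ * d * g) * k⁻¹ * (k * (g⁻¹ * d * g) * k⁻¹) = k * g⁻¹ * (d * d) * g * k⁻¹ by group, hd2]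
      group
    set r := g * k⁻¹ with hr
    have hrd : r * z * r⁻¹ = d := by rw [hr, hz]; group
    have hrc : r * m₁.c * r⁻¹ = y := by
      rw [hr, hy, show g * k⁻¹ * m₁.c * (g * k⁻¹)⁻¹ = g * (k⁻¹ * (m₁.c * k)) * g⁻¹ by group, ← hkc,
        inv_mul_cancel_left]
    have key : ∀ {P : Subgroup G} (m : Mdl P), z ∈ m.E → m₁.c ∈ m.E → Nat.card m.E = 8 → y ∈ T := by
      intro P m hzE hcE h8
      set B := m.E.map (MulAut.conj r).toMonoidHom with hB
      have hdB : d ∈ B := ⟨z, hzE, hrd⟩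
      have hyB : y ∈ B := ⟨m₁.c, hcE, hrc⟩
      have hBsq : ∀ a ∈ B, a * a = 1 := by rintro _ ⟨e, he, rfl⟩; rw [← map_mul, m.E_sq he, map_one]
      have hBc : ∀ a ∈ B, ∀ b ∈ B, a * b = b * a := by
        rintro _ ⟨e, he, rfl⟩ _ ⟨f, hf, rfl⟩; rw [← map_mul, ← map_mul, m.E_comm he hf]
      have hBN : B ≤ Subgroup.normalizer ((S : Subgroup G) : Set G) := fun b hb => hCd b (hBc d hdB b hb)
      have hBS : B ≤ (S : Subgroup G) := by
        have := S.3 ((m.E_isPGroup.map _).to_sup_of_normal_right' S.isPGroup' hBN) le_sup_right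
        exact this ▸ le_sup_left
      exact hEight B (hBS.trans hRS.ge) hBsq hBc (by rw [hB, card_map_conj, h8]) hyB
    rcases h.mem_E_or hd hzT hz2 with hzE | hzE
    · exact key m₁ hzE m₁.c_mem_E h.card_E
    · exact key m₂ hzE h.symm.c₂_mem_E h.symm.card_E

end CfsgLib.ZNEnd
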