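import Cfsg.Agent.SolvFactor.Unique
import Cfsg.Agent.InvolveS3.Basic
import Cfsg.Prelude.Def_JComponents

/-!
Subgroups isomorphic to `S₄` or to `S₄ × Z₂` inside an ambient group, and maximal `2`-local subgroups of the
subgroup generated by the elements of odd order.
-/

set_option autoImplicit false
set_option linter.unusedSectionVars false
set_option linter.style.haveILetI false
set_option maxRecDepth 100000

namespace CfsgLib.ZNEnd

open Equiv
open CfsgLib.InvolveS3 (toThree)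
open CfsgLib.SolvFactor (conj_mem conj_mem' mem_normalizer_of_conj)
open scoped commutatorElement

theorem ker_facts : ∀ p q : Perm (Fin 4), toThree p = 1 → toThree q = 1 → p * p = 1 ∧ p * q = q * p := by
  decide

theorem ker_transitive : ∀ v w : Perm (Fin 4), toThree v = 1 → toThree w = 1 → v ≠ 1 → w ≠ 1 →
    ∃ g : Perm (Fin 4), g * v * g⁻¹ = w := by
  decide

theorem ker_odd : ∀ v : Perm (Fin 4), toThree v = 1 → ∃ a b : Perm (Fin 4), a ^ 3 = 1 ∧ b ^ 3 = 1 ∧ v = a * b := by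
  decide

theorem not_two : ∀ p : Perm (Fin 4), toThree p ≠ 1 → ∃ g : Perm (Fin 4), (p * (g * p * g⁻¹)) ^ 8 ≠ 1 := by
  decide

theorem sign_neg : ∀ q : Perm (Fin 4), q ^ 8 = 1 → toThree q ≠ 1 → Perm.sign q = -1 := by
  decide

theorem sign_pos : ∀ p : Perm (Fin 4), Perm.sign p = 1 → ∃ a b : Perm (Fin 4), a ^ 3 = 1 ∧ b ^ 3 = 1 ∧ p = a * b := by
  decide

theorem pow_24 : ∀ p : Perm (Fin 4), p ^ 24 = 1 := by decide

variable {G : Type*} [Group G] [Finite G]

/-- The subgroup generated by the elements of odd order. -/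
def oddGen (G : Type*) [Group G] : Subgroup G := Subgroup.closure {g : G | Odd (orderOf g)}

/-- `P` is isomorphic to `S₄`, or to `S₄` times a group of order two generated by `c`. -/
structure Mdl (P : Subgroup G) where
  s : Perm (Fin 4) →* G
  c : G
  π : P →* Perm (Fin 4)
  s_mem : ∀ p, s p ∈ P
  π_s : ∀ p (h : s p ∈ P), π ⟨s p, h⟩ = p
  c_mem : c ∈ P
  c_sq : c * c = 1
  π_c : ∀ h : c ∈ P, π ⟨c, h⟩ = 1
  c_comm : ∀ g ∈ P, g * c = c * g
  decomp : ∀ g : P, (g : G) = s (π g) ∨ (g : G) = s (π g) * c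

namespace Mdl

variable {P : Subgroup G} (m : Mdl P)

/-- The four-group. -/
def V : Subgroup G := toThree.ker.map m.s

/-- The four-group times the centre. -/
def E : Subgroup G := (toThree.comp m.π).ker.map P.subtype

theorem mem_E {g : G} (hg : g ∈ P) : g ∈ m.E ↔ toThree (m.π ⟨g, hg⟩) = 1 := by
  constructor
  · rintro ⟨w, hw, e⟩
    rw [show (⟨g, hg⟩ : P) = w from Subtype.ext e.symm]
    exact hw
  · exact fun h => ⟨⟨g, hg⟩, h, rfl⟩

theorem E_le : m.E ≤ P := Subgroup.map_subtype_le _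

theorem V_le_E : m.V ≤ m.E := by
  rintro _ ⟨p, hp, rfl⟩
  rw [m.mem_E (m.s_mem p), m.π_s]
  exact hp

theorem V_le : m.V ≤ P := m.V_le_E.trans m.E_le

theorem c_mem_E : m.c ∈ m.E := by rw [m.mem_E m.c_mem, m.π_c, map_one]

theorem s_injective : Function.Injective m.s := fun p q h => by
  rw [← m.π_s p (m.s_mem p), ← m.π_s q (m.s_mem q)]
  exact congrArg m.π (Subtype.ext h)

theorem card_V : Nat.card m.V = 4 := by
  rw [V, Subgroup.card_map_of_injective m.s_injective, CfsgLib.InvolveS3.card_ker]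

theorem E_cases {g : G} (hg : g ∈ m.E) : g ∈ m.V ∨ g * m.c ∈ m.V := by
  have h1 := (m.mem_E (m.E_le hg)).1 hg
  rcases m.decomp ⟨g, m.E_le hg⟩ with h | h
  · exact Or.inl ⟨_, h1, h.symm⟩
  · refine Or.inr ⟨_, h1, ?_⟩
    change g = _ at h
    calc m.s _ = m.s _ * m.c * m.c := by rw [mul_assoc, m.c_sq, mul_one]
      _ = g * m.c := by rw [← h]

theorem V_comm {u v : G} (hu : u ∈ m.V) (hv : v ∈ m.V) : u * v = v * u := by
  obtain ⟨p, hp, rfl⟩ := hu
  obtain ⟨q, hq, rfl⟩ := hv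
  rw [← map_mul, ← map_mul, (ker_facts p q hp hq).2]

theorem V_sq {u : G} (hu : u ∈ m.V) : u * u = 1 := by
  obtain ⟨p, hp, rfl⟩ := hu
  rw [← map_mul, (ker_facts p p hp hp).1, map_one]

theorem E_eq : m.E = m.V ⊔ Subgroup.zpowers m.c := by
  refine le_antisymm (fun g hg => ?_) (sup_le m.V_le_E (Subgroup.zpowers_le.2 m.c_mem_E))
  rcases m.E_cases hg with h | h
  · exact Subgroup.mem_sup_left h
  · rw [show g = g * m.c * m.c by rw [mul_assoc, m.c_sq, mul_one]]
    exact mul_mem (Subgroup.mem_sup_left h) (Subgroup.mem_sup_right (Subgroup.mem_zpowers _))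

theorem E_good : CfsgLib.ZJ.Good 2 true m.E := by
  rw [E_eq]
  refine CfsgLib.ZJ.good_sup ⟨⟨⟨fun a b => Subtype.ext (m.V_comm a.2 b.2)⟩⟩, fun _ a ha => by
      rw [pow_two]; exact m.V_sq ha⟩ ?_ ?_
  · rw [Subgroup.zpowers_eq_closure]
    exact CfsgLib.ZJ.good_closure (by rintro a rfl b rfl; rfl) (by rintro - a rfl; rw [pow_two]; exact m.c_sq)
  · exact Subgroup.zpowers_le.2 (Subgroup.mem_centralizer_iff.2 fun v hv => m.c_comm v (m.V_le hv))

theorem E_comm {u v : G} (hu : u ∈ m.E) (hv : v ∈ m.E) : u * v = v * u :=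
  CfsgLib.ZJ.good_commute m.E_good hu hv

theorem E_sq {u : G} (hu : u ∈ m.E) : u * u = 1 := by
  rw [← pow_two]; exact m.E_good.2 rfl u hu

theorem card_E_le : Nat.card m.E ≤ 4 * orderOf m.c := by
  rw [E_eq, ← m.card_V, ← Nat.card_zpowers m.c]
  have hn : m.V ≤ Subgroup.normalizer (Subgroup.zpowers m.c : Set G) := fun v hv =>
    mem_normalizer_of_conj fun w hw => by
      obtain ⟨i, rfl⟩ := Subgroup.mem_zpowers_iff.1 hw
      rw [← conj_zpow, show v * m.c * v⁻¹ = m.c by rw [m.c_comm v (m.V_le hv), mul_inv_cancel_right]]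
      exact Subgroup.zpow_mem _ (Subgroup.mem_zpowers _) i
  rw [← CfsgLib.ZJ.card_sup_mul_card_inf_of_le_normalizer hn]
  exact Nat.le_mul_of_pos_right _ Nat.card_pos

theorem mem_E_of_centralizes {g : G} (hg : g ∈ P) (h : ∀ v ∈ m.V, v * g = g * v) : g ∈ m.E := by
  rw [m.mem_E hg]
  refine CfsgLib.InvolveS3.ker_centralizer _ fun p hp => ?_
  have h1 := congrArg m.π (show (⟨m.s p, m.s_mem p⟩ : P) * ⟨g, hg⟩ = ⟨g, hg⟩ * ⟨m.s p, m.s_mem p⟩ from
    Subtype.ext (h _ ⟨p, hp, rfl⟩))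
  rwa [map_mul, map_mul, m.π_s] at h1

theorem V_normal : P ≤ Subgroup.normalizer (m.V : Set G) := fun g hg => mem_normalizer_of_conj (by
  rintro _ ⟨p, hp, rfl⟩
  refine ⟨m.π ⟨g, hg⟩ * p * (m.π ⟨g, hg⟩)⁻¹, ?_, ?_⟩
  · show toThree _ = 1
    rw [map_mul, map_mul, map_inv, show toThree p = 1 from hp, mul_one, mul_inv_cancel]
  · rcases m.decomp ⟨g, hg⟩ with h | h <;> change g = _ at h
    · generalize m.π ⟨g, hg⟩ = q at h ⊢
      subst h
      rw [map_mul, map_mul, map_inv]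
    · generalize m.π ⟨g, hg⟩ = q at h ⊢
      subst h
      rw [map_mul, map_mul, map_inv, mul_inv_rev]
      have e : m.c * m.s p = m.s p * m.c := (m.c_comm _ (m.s_mem p)).symm
      calc m.s q * m.s p * (m.s q)⁻¹
          = m.s q * (m.s p * m.c) * m.c⁻¹ * (m.s q)⁻¹ := by group
        _ = _ := by rw [← e]; group)

theorem V_transitive {v w : G} (hv : v ∈ m.V) (hw : w ∈ m.V) (hv1 : v ≠ 1) (hw1 : w ≠ 1) :
    ∃ g ∈ P, g * v * g⁻¹ = w := by
  obtain ⟨p, hp, rfl⟩ := hv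
  obtain ⟨q, hq, rfl⟩ := hw
  obtain ⟨g, hg⟩ := ker_transitive p q hp hq (fun e => hv1 (by rw [e, map_one])) (fun e => hw1 (by rw [e, map_one]))
  exact ⟨m.s g, m.s_mem g, by rw [← map_inv, ← map_mul, ← map_mul, hg]⟩

theorem V_le_oddGen : m.V ≤ oddGen G := by
  rintro _ ⟨p, hp, rfl⟩
  obtain ⟨a, b, ha, hb, rfl⟩ := ker_odd p hp
  have key : ∀ a : Perm (Fin 4), a ^ 3 = 1 → m.s a ∈ oddGen G := fun a ha => Subgroup.subset_closure (by
    show Odd _
    exact Odd.of_dvd_nat (by decide : Odd 3) (orderOf_dvd_of_pow_eq_one (by rw [← map_pow, ha, map_one])))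
  rw [map_mul]
  exact mul_mem (key a ha) (key b hb)

theorem π_pow_eight {g : P} {k : ℕ} (h : (g : G) ^ 2 ^ k = 1) : m.π g ^ 8 = 1 := by
  have h1 : m.π g ^ 2 ^ k = 1 := by
    rw [← map_pow, show g ^ 2 ^ k = 1 from Subtype.ext (by simpa using h), map_one]
  have hd : orderOf (m.π g) ∣ 8 := by
    obtain ⟨j, -, hj⟩ := (Nat.dvd_prime_pow Nat.prime_two).1 (orderOf_dvd_of_pow_eq_one h1)
    have h24 := orderOf_dvd_of_pow_eq_one (pow_24 (m.π g))
    rw [hj] at h24 ⊢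
    have hj3 : j ≤ 3 := by
      by_contra hlt
      push Not at hlt
      exact absurd ((pow_dvd_pow 2 hlt).trans h24) (by decide)
    exact pow_dvd_pow 2 hj3
  exact orderOf_dvd_iff_pow_eq_one.1 hd

/-- A `2`-subgroup of `P` normalized by preimages of all of `S₄` lies in `E`. -/
theorem le_E_of {X : Subgroup G} (hXP : X ≤ P) (hX2 : IsPGroup 2 X)
    (hn : ∀ p, ∃ k : P, m.π k = p ∧ (k : G) ∈ Subgroup.normalizer (X : Set G)) : X ≤ m.E := by
  intro x hx
  rw [m.mem_E (hXP hx)]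
  by_contra hne
  obtain ⟨g, hg⟩ := not_two _ hne
  obtain ⟨k, hk, hkn⟩ := hn g
  have hxg : x * ((k : G) * x * (k : G)⁻¹) ∈ X := mul_mem hx (conj_mem hkn hx)
  obtain ⟨i, hi⟩ := hX2 ⟨_, hxg⟩
  have h8 := m.π_pow_eight (g := (⟨x, hXP hx⟩ : P) * (k * ⟨x, hXP hx⟩ * k⁻¹)) (congrArg Subtype.val hi)
  rw [map_mul, map_mul, map_mul, map_inv, hk] at h8
  exact hg h8

/-- A `2`-subgroup normalized by `P` lies in `E`. -/
theorem le_E {X : Subgroup G} (hXP : X ≤ P) (hX2 : IsPGroup 2 X) (hn : P ≤ Subgroup.normalizer (X : Set G)) :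
    X ≤ m.E :=
  m.le_E_of hXP hX2 fun p => ⟨⟨m.s p, m.s_mem p⟩, m.π_s p _, hn (m.s_mem p)⟩

theorem le_sylow {T X : Subgroup G} (hT : Cfsg.IsSylowTwoIn T P) (hXP : X ≤ P) (hX2 : IsPGroup 2 X)
    (hn : P ≤ Subgroup.normalizer (X : Set G)) : X ≤ T := by
  obtain ⟨hTP, hT2, hodd⟩ := hT
  haveI : Fact (Nat.Prime 2) := ⟨Nat.prime_two⟩
  obtain ⟨k, hk⟩ := IsPGroup.iff_card.1 (hT2.to_sup_of_normal_right' hX2 (hTP.trans hn))
  have h1 : T.relIndex (T ⊔ X) ∣ T.relIndex P := by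
    rw [← Subgroup.relIndex_mul_relIndex T (T ⊔ X) P le_sup_left (sup_le hTP hXP)]
    exact dvd_mul_right _ _
  have h2 := Subgroup.relIndex_mul_relIndex ⊥ T (T ⊔ X) bot_le le_sup_left
  rw [Subgroup.relIndex_bot_left, Subgroup.relIndex_bot_left, hk] at h2
  have h3 : T.relIndex (T ⊔ X) ∣ 2 ^ k := ⟨Nat.card T, by rw [← h2, mul_comm]⟩
  obtain ⟨j, -, hj⟩ := (Nat.dvd_prime_pow Nat.prime_two).1 h3
  have hj0 : j = 0 := by
    by_contra hne
    exact Nat.not_even_iff_odd.2 hodd (even_iff_two_dvd.2 ((hj ▸ dvd_pow_self 2 hne).trans h1))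
  rw [hj0, pow_zero, Subgroup.relIndex_eq_one] at hj
  exact le_sup_right.trans hj

theorem V_isPGroup : IsPGroup 2 m.V := fun a => ⟨1, Subtype.ext (by rw [pow_one, pow_two]; exact m.V_sq a.2)⟩

theorem E_isPGroup : IsPGroup 2 m.E := fun a => ⟨1, Subtype.ext (by rw [pow_one, pow_two]; exact m.E_sq a.2)⟩

theorem E_normal : P ≤ Subgroup.normalizer (m.E : Set G) := fun g hg => mem_normalizer_of_conj fun z hz => by
  rw [m.mem_E (P.mul_mem (P.mul_mem hg (m.E_le hz)) (P.inv_mem hg))]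
  show toThree (m.π ((⟨g, hg⟩ : P) * ⟨z, m.E_le hz⟩ * (⟨g, hg⟩ : P)⁻¹)) = 1
  rw [map_mul, map_mul, map_inv, map_mul, map_mul, map_inv, (m.mem_E (m.E_le hz)).1 hz, mul_one, mul_inv_cancel]

/-- Commutators of a Sylow subgroup lie in the four-group. -/
theorem comm_mem_V {T : Subgroup G} (hTP : T ≤ P) (hT2 : IsPGroup 2 T) {a b : G} (ha : a ∈ T) (hb : b ∈ T) :
    a * b * a⁻¹ * b⁻¹ ∈ m.V := by
  set A : P := ⟨a, hTP ha⟩
  set B : P := ⟨b, hTP hb⟩
  have hsq : ∀ z : P, (z : G) ∈ T → toThree (m.π z) * toThree (m.π z) = 1 := fun z hz => by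
    obtain ⟨k, hk⟩ := hT2 ⟨z, hz⟩
    have h8 := m.π_pow_eight (g := z) (congrArg Subtype.val hk)
    have h6 : ∀ q : Perm (Fin 3), q ^ 8 = 1 → q * q = 1 := by decide
    exact h6 _ (by rw [← map_pow, h8, map_one])
  have hs : toThree (m.π (A * B * A⁻¹ * B⁻¹)) = 1 := by
    have hA := hsq A ha
    have hB := hsq B hb
    have hAB := hsq (A * B) (mul_mem ha hb)
    simp only [map_mul, map_inv] at hAB ⊢
    rw [inv_eq_of_mul_eq_one_right hA, inv_eq_of_mul_eq_one_right hB]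
    simpa [mul_assoc] using hAB
  refine ⟨m.π (A * B * A⁻¹ * B⁻¹), hs, ?_⟩
  have key : ∀ z : P, ∃ e : G, (e = 1 ∨ e = m.c) ∧ (z : G) = m.s (m.π z) * e := fun z => by
    rcases m.decomp z with h | h
    exacts [⟨1, Or.inl rfl, by rw [mul_one]; exact h⟩, ⟨m.c, Or.inr rfl, h⟩]
  obtain ⟨e, he, hze⟩ := key A
  obtain ⟨f, hf, hzf⟩ := key B
  have hec : ∀ p, Commute e (m.s p) := fun p => by
    rcases he with rfl | rfl
    exacts [Commute.one_left _, (m.c_comm _ (m.s_mem p)).symm]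
  have hfc : ∀ p, Commute f (m.s p) := fun p => by
    rcases hf with rfl | rfl
    exacts [Commute.one_left _, (m.c_comm _ (m.s_mem p)).symm]
  have hef : Commute e f := by
    rcases he with rfl | rfl <;> rcases hf with rfl | rfl
    exacts [Commute.one_left _, Commute.one_left _, Commute.one_right _, Commute.refl _]
  change a = _ at hze
  change b = _ at hzf
  set pa := m.π A
  set pb := m.π B
  rw [map_mul, map_mul, map_mul, map_inv, map_inv, map_mul, map_mul, map_mul, map_inv, map_inv]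
  rw [hze, hzf]
  calc m.s pa * m.s pb * (m.s pa)⁻¹ * (m.s pb)⁻¹
      = m.s pa * m.s pb * (e * f * (e⁻¹ * f⁻¹)) * (m.s pa)⁻¹ * (m.s pb)⁻¹ := by
        rw [hef.eq]; group
    _ = m.s pa * (e * m.s pb) * f * e⁻¹ * ((m.s pa)⁻¹ * f⁻¹) * (m.s pb)⁻¹ := by
        rw [(hec pb).eq, ← ((hfc pa).inv_left.inv_right).eq]; group
    _ = _ := by group

/-- The part of `P` generated by odd order elements and one more element maps onto `S₄`. -/
theorem exists_mem_oddGen {u : P} (hu : (u : G) ∈ oddGen G) (h8 : m.π u ^ 8 = 1) (hne : toThree (m.π u) ≠ 1)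
    (p : Perm (Fin 4)) : ∃ k : P, (k : G) ∈ oddGen G ∧ m.π k = p := by
  have key : ∀ a : Perm (Fin 4), a ^ 3 = 1 → m.s a ∈ oddGen G := fun a ha => Subgroup.subset_closure (by
    show Odd _
    exact Odd.of_dvd_nat (by decide : Odd 3) (orderOf_dvd_of_pow_eq_one (by rw [← map_pow, ha, map_one])))
  rcases Int.units_eq_one_or (Perm.sign p) with h | h
  · obtain ⟨a, b, ha, hb, rfl⟩ := sign_pos p h
    exact ⟨⟨_, m.s_mem (a * b)⟩, by show m.s (a * b) ∈ _; rw [map_mul]; exact mul_mem (key a ha) (key b hb),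
      m.π_s _ _⟩
  · obtain ⟨a, b, ha, hb, hab⟩ := sign_pos ((m.π u)⁻¹ * p) (by
      rw [map_mul, map_inv, sign_neg _ h8 hne, h]; decide)
    refine ⟨u * ⟨_, m.s_mem (a * b)⟩, ?_, by rw [map_mul, m.π_s, ← hab, mul_inv_cancel_left]⟩
    show (u : G) * m.s (a * b) ∈ _
    rw [map_mul]
    exact mul_mem hu (mul_mem (key a ha) (key b hb))

end Mdl

/-- The model of `S₄`. -/
def mdlOfS4 {P : Subgroup G} (e : P ≃* Perm (Fin 4)) : Mdl P where
  s := P.subtype.comp e.symm.toMonoidHom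
  c := 1
  π := e.toMonoidHom
  s_mem p := (e.symm p).2
  π_s p h := e.apply_symm_apply p
  c_mem := one_mem P
  c_sq := one_mul 1
  π_c h := map_one e
  c_comm g _ := by simp
  decomp g := Or.inl (by show (g : G) = ((e.symm (e g) : P) : G); simp)

/-- The model of `S₄ × Z₂`. -/
def mdlOfS4C2 {P : Subgroup G} (e : P ≃* Perm (Fin 4) × Multiplicative (ZMod 2)) : Mdl P where
  s := P.subtype.comp (e.symm.toMonoidHom.comp (MonoidHom.inl _ _))
  c := (e.symm (1, Multiplicative.ofAdd 1) : P)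
  π := (MonoidHom.fst _ _).comp e.toMonoidHom
  s_mem p := (e.symm (p, 1)).2
  π_s p h := congrArg Prod.fst (e.apply_symm_apply (p, 1))
  c_mem := SetLike.coe_mem _
  c_sq := by
    rw [← Subgroup.coe_mul, ← map_mul, show ((1 : Perm (Fin 4)), Multiplicative.ofAdd (1 : ZMod 2)) *
      (1, Multiplicative.ofAdd 1) = 1 from Prod.ext (one_mul 1) (by decide), map_one, Subgroup.coe_one]
  π_c h := by
    show (e ⟨(e.symm (1, Multiplicative.ofAdd 1) : G), h⟩).1 = 1
    simp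
  c_comm g hg := by
    have h : (⟨g, hg⟩ : P) * e.symm (1, Multiplicative.ofAdd 1) = e.symm (1, Multiplicative.ofAdd 1) * ⟨g, hg⟩ :=
      e.injective (by
        rw [map_mul, map_mul, e.apply_symm_apply]
        exact Prod.ext (by simp) (mul_comm _ _))
    exact congrArg Subtype.val h
  decomp g := by
    have h2 : ∀ z : Multiplicative (ZMod 2), z = 1 ∨ z = Multiplicative.ofAdd 1 := by decide
    rcases h2 (e g).2 with h | h
    · left
      show (g : G) = ((e.symm ((e g).1, 1) : P) : G)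
      rw [← h, Prod.mk.eta, e.symm_apply_apply]
    · right
      show (g : G) = ((e.symm ((e g).1, 1) : P) : G) * ((e.symm (1, Multiplicative.ofAdd 1) : P) : G)
      rw [← Subgroup.coe_mul, ← map_mul, ← h, Prod.mk_mul_mk, mul_one, one_mul, Prod.mk.eta, e.symm_apply_apply]

end CfsgLib.ZNEnd
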