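import Cfsg.Agent.ZNEnd.Model

/-!
Two maximal `2`-local subgroups isomorphic to `S₄` or `S₄ × Z₂` with a common Sylow `2`-subgroup,
and their traces on a subgroup containing all odd order elements.
-/

set_option autoImplicit false
set_option linter.unusedSectionVars false
set_option linter.style.haveILetI false
set_option maxRecDepth 100000

namespace CfsgLib.ZNEnd

open Equiv
open CfsgLib.InvolveS3 (toThree)
open CfsgLib.SolvFactor (conj_mem conj_mem' mem_normalizer_of_conj)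

variable {G : Type*} [Group G] [Finite G]

set_option synthInstance.maxSize 4096 in
theorem ker_four : ∀ d : Perm (Fin 4), toThree d = 1 → d ≠ 1 → ∀ v : Perm (Fin 4), toThree v = 1 → v ≠ 1 →
    v ≠ d → ∀ w : Perm (Fin 4), toThree w = 1 → w = 1 ∨ w = d ∨ w = v ∨ w = d * v := by decide

theorem zpowers_cases {c x : G} (hc : c * c = 1) (hx : x ∈ Subgroup.zpowers c) : x = 1 ∨ x = c := by
  obtain ⟨i, rfl⟩ := Subgroup.mem_zpowers_iff.1 hx
  have h2 : c ^ (2 : ℤ) = 1 := by rw [zpow_two, hc]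
  obtain ⟨j, rfl | rfl⟩ := Int.even_or_odd' i
  · exact Or.inl (by rw [zpow_mul, h2, one_zpow])
  · exact Or.inr (by rw [zpow_add, zpow_mul, h2, one_zpow, one_mul, zpow_one])

theorem syl_max {T P Q : Subgroup G} (hT : Cfsg.IsSylowTwoIn T P) (hQP : Q ≤ P) (hQ2 : IsPGroup 2 Q)
    (hTQ : T ≤ Q) : Q = T := by
  haveI : Fact (Nat.Prime 2) := ⟨Nat.prime_two⟩
  obtain ⟨hTP, hT2, hodd⟩ := hT
  obtain ⟨k, hk⟩ := IsPGroup.iff_card.1 hQ2
  have h1 : T.relIndex Q ∣ T.relIndex P :=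
    ⟨_, (Subgroup.relIndex_mul_relIndex T Q P hTQ hQP).symm⟩
  have h2 := Subgroup.relIndex_mul_relIndex ⊥ T Q bot_le hTQ
  rw [Subgroup.relIndex_bot_left, Subgroup.relIndex_bot_left, hk] at h2
  have h3 : T.relIndex Q ∣ 2 ^ k := ⟨Nat.card T, by rw [← h2, mul_comm]⟩
  obtain ⟨j, -, hj⟩ := (Nat.dvd_prime_pow Nat.prime_two).1 h3
  have hj0 : j = 0 := by
    by_contra hne
    exact Nat.not_even_iff_odd.2 hodd (even_iff_two_dvd.2 ((hj ▸ dvd_pow_self 2 hne).trans h1))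
  rw [hj0, pow_zero, Subgroup.relIndex_eq_one] at hj
  exact le_antisymm hj hTQ

theorem isSyl_of_isSylowTwoIn {T P : Subgroup G} (hT : Cfsg.IsSylowTwoIn T P) : CfsgLib.SolvFactor.IsSyl P T :=
  ⟨hT.1, hT.2.1, fun _ hQP hQ2 hTQ => syl_max hT hQP hQ2 hTQ⟩

/-- An element of `2`-power order of `P` normalizing the Sylow subgroup `T` lies in `T`. -/
theorem mem_of_two_power {T P : Subgroup G} (hT : Cfsg.IsSylowTwoIn T P) {a : G} (haP : a ∈ P)
    (ha2 : IsPGroup 2 (Subgroup.zpowers a)) (han : a ∈ Subgroup.normalizer (T : Set G)) : a ∈ T := by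
  have h := syl_max hT (sup_le (Subgroup.zpowers_le.2 haP) hT.1)
    (ha2.to_sup_of_normal_right' hT.2.1 (Subgroup.zpowers_le.2 han)) le_sup_right
  rw [← h]
  exact Subgroup.mem_sup_left (Subgroup.mem_zpowers a)

theorem normalizer_eq_of_maximal {P V : Subgroup G} (hP : Cfsg.IsMaximalTwoLocal P) (hV : IsPGroup 2 V)
    (hV1 : V ≠ ⊥) (hn : P ≤ Subgroup.normalizer (V : Set G)) : Subgroup.normalizer (V : Set G) = P :=
  hP.2 _ ⟨V, hV, hV1, rfl⟩ hn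

theorem sup_le_normalizer {A B : Subgroup G} {k : G} (hA : k ∈ Subgroup.normalizer (A : Set G))
    (hB : k ∈ Subgroup.normalizer (B : Set G)) : k ∈ Subgroup.normalizer ((A ⊔ B : Subgroup G) : Set G) := by
  refine mem_normalizer_of_conj fun w hw => ?_
  have h : (A ⊔ B).map (MulAut.conj k).toMonoidHom ≤ A ⊔ B := by
    rw [Subgroup.map_sup]
    exact sup_le_sup (by rintro _ ⟨a, ha, rfl⟩; exact conj_mem hA ha)
      (by rintro _ ⟨b, hb, rfl⟩; exact conj_mem hB hb)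
  exact h ⟨w, hw, rfl⟩

namespace Mdl

variable {P : Subgroup G} (m : Mdl P)

theorem four {d v : G} (hd : d ∈ m.V) (hv : v ∈ m.V) (hd1 : d ≠ 1) (hv1 : v ≠ 1) (hvd : v ≠ d) {w : G}
    (hw : w ∈ m.V) : w = 1 ∨ w = d ∨ w = v ∨ w = d * v := by
  obtain ⟨p, hp, rfl⟩ := hd
  obtain ⟨q, hq, rfl⟩ := hv
  obtain ⟨r, hr, rfl⟩ := hw
  rcases ker_four p hp (fun e => hd1 (by rw [e, map_one])) q hq (fun e => hv1 (by rw [e, map_one]))
    (fun e => hvd (by rw [e])) r hr with h | h | h | h <;> subst h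
  · exact Or.inl (map_one _)
  · exact Or.inr (Or.inl rfl)
  · exact Or.inr (Or.inr (Or.inl rfl))
  · exact Or.inr (Or.inr (Or.inr (map_mul _ _ _)))

theorem V_ne_bot : m.V ≠ ⊥ := fun h => by
  have := m.card_V
  rw [h, Subgroup.card_bot] at this
  omega

end Mdl

/-- Two models with a common Sylow `2`-subgroup. -/
structure Pair (T : Subgroup G) {P₁ P₂ : Subgroup G} (m₁ : Mdl P₁) (m₂ : Mdl P₂) : Prop where
  ne : P₁ ≠ P₂
  max₁ : Cfsg.IsMaximalTwoLocal P₁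
  max₂ : Cfsg.IsMaximalTwoLocal P₂
  syl₁ : Cfsg.IsSylowTwoIn T P₁
  syl₂ : Cfsg.IsSylowTwoIn T P₂

/-- A common nontrivial element of the two four-groups. -/
def IsD {P₁ P₂ : Subgroup G} (m₁ : Mdl P₁) (m₂ : Mdl P₂) (d : G) : Prop := d ≠ 1 ∧ d ∈ m₁.V ∧ d ∈ m₂.V

variable {T P₁ P₂ : Subgroup G} {m₁ : Mdl P₁} {m₂ : Mdl P₂} {d : G}

theorem IsD.symm (hd : IsD m₁ m₂ d) : IsD m₂ m₁ d := ⟨hd.1, hd.2.2, hd.2.1⟩

namespace Pair

theorem symm (h : Pair T m₁ m₂) : Pair T m₂ m₁ := ⟨h.ne.symm, h.max₂, h.max₁, h.syl₂, h.syl₁⟩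

variable (h : Pair T m₁ m₂)
include h

theorem le₁ : T ≤ P₁ := h.syl₁.1

theorem le₂ : T ≤ P₂ := h.syl₂.1

theorem E_le_T : m₁.E ≤ T := Mdl.le_sylow h.syl₁ m₁.E_le m₁.E_isPGroup m₁.E_normal

theorem V_le_T : m₁.V ≤ T := m₁.V_le_E.trans h.E_le_T

theorem normalizer_V : Subgroup.normalizer (m₁.V : Set G) = P₁ :=
  normalizer_eq_of_maximal h.max₁ m₁.V_isPGroup m₁.V_ne_bot m₁.V_normal

theorem normalizer_E : Subgroup.normalizer (m₁.E : Set G) = P₁ :=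
  normalizer_eq_of_maximal h.max₁ m₁.E_isPGroup (fun e => m₁.V_ne_bot (le_bot_iff.1 (e ▸ m₁.V_le_E))) m₁.E_normal

theorem V_not_le : ¬ m₂.V ≤ m₁.E := fun hle => by
  have h1 : m₁.E ≤ m₂.E := fun a ha => m₂.mem_E_of_centralizes (h.le₂ (h.E_le_T ha))
    fun v hv => m₁.E_comm (hle hv) ha
  have h2 : m₂.E ≤ m₁.E := fun a ha => m₁.mem_E_of_centralizes (h.le₁ (h.symm.E_le_T ha))
    fun v hv => m₂.E_comm (h1 (m₁.V_le_E hv)) ha
  exact h.ne (by rw [← h.normalizer_E, ← h.symm.normalizer_E, le_antisymm h1 h2])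

/-- Some commutator of `T` is common to the two four-groups. -/
theorem exists_d : ∃ d, IsD m₁ m₂ d ∧ ∃ a ∈ T, ∃ b ∈ T, d = a * b * a⁻¹ * b⁻¹ := by
  obtain ⟨t, ht, htE⟩ := SetLike.not_le_iff_exists.1 h.V_not_le
  obtain ⟨v, hv, hvt⟩ : ∃ v ∈ m₁.V, v * t ≠ t * v := by
    by_contra hc
    push Not at hc
    exact htE (m₁.mem_E_of_centralizes (h.le₁ (h.symm.V_le_T ht)) hc)
  refine ⟨v * t * v⁻¹ * t⁻¹, ⟨fun e => hvt ?_, ?_, ?_⟩, v, h.V_le_T hv, t, h.symm.V_le_T ht, rfl⟩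
  · exact mul_inv_eq_iff_eq_mul.1 (mul_inv_eq_one.1 e)
  · rw [show v * t * v⁻¹ * t⁻¹ = v * (t * v⁻¹ * t⁻¹) by group]
    exact mul_mem hv (conj_mem (m₁.V_normal (h.le₁ (h.symm.V_le_T ht))) (inv_mem hv))
  · exact mul_mem (conj_mem (m₂.V_normal (h.le₂ (h.V_le_T hv))) ht) (inv_mem ht)

variable (hd : IsD m₁ m₂ d)
include hd

theorem inf_cases {x : G} (hx₁ : x ∈ m₁.V) (hx₂ : x ∈ m₂.V) : x = 1 ∨ x = d := by
  by_contra hc
  push Not at hc
  refine h.symm.V_not_le (le_trans (fun w hw => ?_) m₂.V_le_E)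
  rcases m₁.four hd.2.1 hx₁ hd.1 hc.1 hc.2 hw with rfl | rfl | rfl | rfl
  exacts [one_mem _, hd.2.2, hx₂, mul_mem hd.2.2 hx₂]

theorem d_mem : d ∈ T := h.V_le_T hd.2.1

theorem d_central {s : G} (hs : s ∈ T) : s * d = d * s := by
  rcases h.inf_cases hd (conj_mem (m₁.V_normal (h.le₁ hs)) hd.2.1) (conj_mem (m₂.V_normal (h.le₂ hs)) hd.2.2)
    with e | e
  · exact absurd (conj_eq_one_iff.1 e) hd.1
  · exact mul_inv_eq_iff_eq_mul.1 e

theorem comm_cases {a b : G} (ha : a ∈ T) (hb : b ∈ T) : a * b * a⁻¹ * b⁻¹ = 1 ∨ a * b * a⁻¹ * b⁻¹ = d :=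
  h.inf_cases hd (m₁.comm_mem_V h.le₁ h.syl₁.2.1 ha hb) (m₂.comm_mem_V h.le₂ h.syl₁.2.1 ha hb)

/-- An element of `T` outside `E` fixes only `1` and `d` in the four-group. -/
theorem fixed {b v : G} (hb : b ∈ T) (hbE : b ∉ m₁.E) (hv : v ∈ m₁.V) (hbv : v * b = b * v) : v = 1 ∨ v = d := by
  by_contra hc
  push Not at hc
  refine hbE (m₁.mem_E_of_centralizes (h.le₁ hb) fun w hw => ?_)
  rcases m₁.four hd.2.1 hv hd.1 hc.1 hc.2 hw with rfl | rfl | rfl | rfl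
  · rw [one_mul, mul_one]
  · exact (h.d_central hd hb).symm
  · exact hbv
  · rw [mul_assoc, hbv, ← mul_assoc, ← h.d_central hd hb, mul_assoc]

theorem E_fixed {b a : G} (hb : b ∈ T) (hbE : b ∉ m₁.E) (ha : a ∈ m₁.E) (hab : a * b = b * a) :
    a = 1 ∨ a = d ∨ a = m₁.c ∨ a = d * m₁.c := by
  rcases m₁.E_cases ha with hv | hv
  · rcases h.fixed hd hb hbE hv hab with e | e
    exacts [Or.inl e, Or.inr (Or.inl e)]
  · have e' : a = a * m₁.c * m₁.c := by rw [mul_assoc, m₁.c_sq, mul_one]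
    rcases h.fixed hd hb hbE hv
      (by rw [mul_assoc, ← m₁.c_comm b (h.le₁ hb), ← mul_assoc, hab, mul_assoc]) with e | e <;> rw [e] at e'
    · exact Or.inr (Or.inr (Or.inl (e'.trans (one_mul _))))
    · exact Or.inr (Or.inr (Or.inr e'))

theorem card_D : Nat.card (m₁.V ⊔ m₂.V : Subgroup G) = 8 := by
  have h2 := CfsgLib.ZJ.card_sup_mul_card_inf_of_le_normalizer
    (show m₁.V ≤ Subgroup.normalizer (m₂.V : Set G) from (h.V_le_T.trans h.le₂).trans m₂.V_normal)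
  have h3 : Nat.card (m₁.V ⊓ m₂.V : Subgroup G) = 2 := by
    rw [Nat.card_eq_two_iff' (1 : (m₁.V ⊓ m₂.V : Subgroup G))]
    refine ⟨⟨d, hd.2.1, hd.2.2⟩, fun e => hd.1 (congrArg Subtype.val e), fun y hy => ?_⟩
    rcases h.inf_cases hd y.2.1 y.2.2 with e | e
    · exact absurd (Subtype.ext e) hy
    · exact Subtype.ext e
  rw [h3, m₁.card_V, m₂.card_V] at h2
  omega

omit hd

theorem exists_preimage (p : Perm (Fin 4)) :
    ∃ k : P₁, (k : G) ∈ oddGen G ∧ m₁.π k = p := by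
  obtain ⟨t, ht, htE⟩ := SetLike.not_le_iff_exists.1 h.V_not_le
  have htP : t ∈ P₁ := h.le₁ (h.symm.V_le_T ht)
  exact m₁.exists_mem_oddGen (u := ⟨t, htP⟩) (m₂.V_le_oddGen ht)
    (m₁.π_pow_eight (k := 1) (by show t ^ 2 ^ 1 = 1; rw [pow_one, pow_two]; exact m₂.V_sq ht))
    (fun e => htE ((m₁.mem_E htP).2 e)) p

/-- The trace of `P₁` on the odd part is a maximal `2`-local subgroup of it isomorphic to `S₄`. -/
theorem side (H : Subgroup G) (hH : H = oddGen G) (hc : m₁.c ∈ H → m₁.c = 1) :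
    Cfsg.IsMaximalTwoLocal (P₁.subgroupOf H) ∧ Nonempty (P₁.subgroupOf H ≃* Perm (Fin 4)) ∧
      ¬ P₁.subgroupOf H ≤ P₂.subgroupOf H := by
  subst hH
  have hVH : m₁.V ≤ oddGen G := m₁.V_le_oddGen
  have inH : ∀ x, x ∈ m₁.E → x ∈ oddGen G → x ∈ m₁.V := fun x hx hxH => by
    rcases m₁.E_cases hx with hv | hv
    · exact hv
    · have hcH : m₁.c ∈ oddGen G := by
        have := mul_mem (inv_mem hxH) (hVH hv)
        rwa [inv_mul_cancel_left] at this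
      rwa [hc hcH, mul_one] at hv
  refine ⟨⟨⟨m₁.V.subgroupOf (oddGen G), ?_, ?_, ?_⟩, fun N hN hle => ?_⟩, ?_, fun hle => ?_⟩
  · exact m₁.V_isPGroup.comap_of_injective (oddGen G).subtype (oddGen G).subtype_injective
  · intro e
    exact m₁.V_ne_bot (le_bot_iff.1 fun v hv => by
      have h1 : (⟨v, hVH hv⟩ : oddGen G) ∈ m₁.V.subgroupOf (oddGen G) := hv
      rw [e] at h1
      exact congrArg Subtype.val h1)
  · ext k
    constructor
    · intro hk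
      exact mem_normalizer_of_conj fun v hv =>
        (conj_mem (g := (k : G)) (v := (v : G)) (V := m₁.V) (m₁.V_normal hk) hv : _)
    · intro hk
      show (k : G) ∈ P₁
      rw [← h.normalizer_V]
      refine mem_normalizer_of_conj fun v hv => ?_
      have h1 := conj_mem hk (show (⟨v, hVH hv⟩ : oddGen G) ∈ m₁.V.subgroupOf (oddGen G) from hv)
      exact h1
  · obtain ⟨X, hX2, hX1, rfl⟩ := hN
    set Y := X.map (oddGen G).subtype with hY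
    have hY2 : IsPGroup 2 Y := hX2.map _
    have hYH : Y ≤ oddGen G := Subgroup.map_subtype_le _
    have hkY : ∀ k, k ∈ P₁ → k ∈ oddGen G → k ∈ Subgroup.normalizer (Y : Set G) := fun k hk hkH =>
      mem_normalizer_of_conj (by
        rintro _ ⟨x, hx, rfl⟩
        exact ⟨_, conj_mem (hle (show (⟨k, hkH⟩ : oddGen G) ∈ P₁.subgroupOf (oddGen G) from hk)) hx, rfl⟩)
    have hQ2 : IsPGroup 2 (m₁.V ⊔ Y : Subgroup G) :=
      m₁.V_isPGroup.to_sup_of_normal_right' hY2 fun v hv => hkY v (m₁.V_le hv) (hVH hv)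
    have hQH : m₁.V ⊔ Y ≤ oddGen G := sup_le hVH hYH
    set W := (m₁.V ⊔ Y) ⊓ P₁ with hW
    have hWV : W ≤ m₁.V := fun x hx => inH x (m₁.le_E_of inf_le_right (hQ2.to_le inf_le_left) (fun p => by
      obtain ⟨k, hkH, hk⟩ := h.exists_preimage p
      refine ⟨k, hk, mem_normalizer_of_conj fun w hw => ⟨?_, P₁.mul_mem (P₁.mul_mem k.2 hw.2) (P₁.inv_mem k.2)⟩⟩
      exact conj_mem (sup_le_normalizer (m₁.V_normal k.2) (hkY _ k.2 hkH)) hw.1) hx) (hQH hx.1)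
    have hQP : m₁.V ⊔ Y ≤ P₁ := by
      by_contra hne
      obtain ⟨z, ⟨hzQ, hzn⟩, hzW⟩ :=
        CfsgLib.SolvFactor.lt_inf_normalizer hQ2 (inf_le_left : W ≤ m₁.V ⊔ Y) (fun e => hne (e ▸ inf_le_right))
      have hWV' : W = m₁.V := le_antisymm hWV (le_inf le_sup_left m₁.V_le)
      replace hzn : z ∈ Subgroup.normalizer (W : Set G) := hzn
      rw [hWV', h.normalizer_V] at hzn
      exact hzW ⟨hzQ, hzn⟩
    have hYV : Y ≤ m₁.V := fun y hy => hWV ⟨Subgroup.mem_sup_right hy, hQP (Subgroup.mem_sup_right hy)⟩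
    have hVY : m₁.V ≤ Y := fun w hw => by
      by_cases hw1 : w = 1
      · exact hw1 ▸ one_mem Y
      obtain ⟨y, hy, hy1⟩ : ∃ y ∈ Y, y ≠ 1 := by
        by_contra hc'
        push Not at hc'
        exact hX1 ((Subgroup.map_eq_bot_iff_of_injective _ (oddGen G).subtype_injective).1
          (le_bot_iff.1 fun y hy => hc' y hy))
      obtain ⟨g, hgP, hg⟩ := m₁.V_transitive (hYV hy) hw hy1 hw1
      obtain ⟨k, hkH, hk⟩ := h.exists_preimage (m₁.π ⟨g, hgP⟩)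
      have hmem := conj_mem (hkY _ k.2 hkH) hy
      suffices e : (k : G) * y * (k : G)⁻¹ = w by rwa [e] at hmem
      obtain ⟨p, hp, hpe⟩ := hYV hmem
      obtain ⟨q, hq, hqe⟩ := hw
      have key : p = q := by
        have e1 : m₁.π (k * ⟨y, m₁.V_le (hYV hy)⟩ * k⁻¹) = p :=
          (congrArg m₁.π (Subtype.ext hpe.symm : (k * ⟨y, _⟩ * k⁻¹ : P₁) = ⟨m₁.s p, m₁.s_mem p⟩)).trans (m₁.π_s p _)
        have e2 : m₁.π (⟨g, hgP⟩ * ⟨y, m₁.V_le (hYV hy)⟩ * (⟨g, hgP⟩ : P₁)⁻¹) = q :=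
          (congrArg m₁.π (Subtype.ext (hg.trans hqe.symm) :
            (⟨g, hgP⟩ * ⟨y, _⟩ * (⟨g, hgP⟩ : P₁)⁻¹ : P₁) = ⟨m₁.s q, m₁.s_mem q⟩)).trans (m₁.π_s q _)
        rw [map_mul, map_mul, map_inv, hk] at e1
        rw [map_mul, map_mul, map_inv] at e2
        exact e1.symm.trans e2
      rw [← hpe, key, hqe]
    refine le_antisymm (fun n hn => ?_) hle
    show (n : G) ∈ P₁
    rw [← h.normalizer_V, le_antisymm hVY hYV]
    exact mem_normalizer_of_conj (by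
      rintro _ ⟨x, hx, rfl⟩
      exact ⟨_, conj_mem hn hx, rfl⟩)
  · let φ : P₁.subgroupOf (oddGen G) →* Perm (Fin 4) :=
      { toFun := fun k => m₁.π ⟨(k : oddGen G), k.2⟩
        map_one' := map_one m₁.π
        map_mul' := fun a b => map_mul m₁.π ⟨(a : oddGen G), a.2⟩ ⟨(b : oddGen G), b.2⟩ }
    refine ⟨MulEquiv.ofBijective φ ⟨?_, fun p => ?_⟩⟩
    · rw [injective_iff_map_eq_one]
      intro k hk
      have hk' : m₁.π ⟨(k : oddGen G), k.2⟩ = 1 := hk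
      rcases m₁.decomp ⟨(k : oddGen G), k.2⟩ with e | e <;> rw [hk', map_one] at e
      · exact Subtype.ext (Subtype.ext e)
      · rw [one_mul] at e
        exact Subtype.ext (Subtype.ext (e.trans (hc (e ▸ ((k : oddGen G)).2))))
    · obtain ⟨k, hkH, hk⟩ := h.exists_preimage p
      exact ⟨⟨⟨k, hkH⟩, k.2⟩, hk⟩
  · obtain ⟨t, ht, htE⟩ := SetLike.not_le_iff_exists.1 h.V_not_le
    refine htE (m₁.le_E_of (h.symm.V_le_T.trans h.le₁) m₂.V_isPGroup (fun p => ?_) ht)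
    obtain ⟨k, hkH, hk⟩ := h.exists_preimage p
    exact ⟨k, hk, m₂.V_normal (hle (show (⟨k, hkH⟩ : oddGen G) ∈ P₁.subgroupOf (oddGen G) from k.2))⟩

theorem conclusion (H : Subgroup G) (hH : H = oddGen G) (hc₁ : m₁.c ∈ H → m₁.c = 1)
    (hc₂ : m₂.c ∈ H → m₂.c = 1) :
    ∃ M₁ M₂ : Subgroup H, M₁ ≠ M₂ ∧ Cfsg.IsMaximalTwoLocal M₁ ∧ Cfsg.IsMaximalTwoLocal M₂ ∧
      Nonempty (M₁ ≃* Perm (Fin 4)) ∧ Nonempty (M₂ ≃* Perm (Fin 4)) ∧ Nat.card ↥(M₁ ⊓ M₂) = 8 := by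
  obtain ⟨hmax₁, ⟨e₁⟩, hnle⟩ := h.side H hH hc₁
  obtain ⟨hmax₂, ⟨e₂⟩, -⟩ := h.symm.side H hH hc₂
  obtain ⟨d, hd, -⟩ := h.exists_d
  refine ⟨_, _, fun e => hnle e.le, hmax₁, hmax₂, ⟨e₁⟩, ⟨e₂⟩, ?_⟩
  set M₁ := P₁.subgroupOf H
  set M₂ := P₂.subgroupOf H
  have h24 : Nat.card M₁ = 24 := by
    rw [Nat.card_congr e₁.toEquiv, Nat.card_perm, Nat.card_fin]
    rfl
  set D := m₁.V ⊔ m₂.V
  have hDH : D ≤ H := hH ▸ sup_le m₁.V_le_oddGen m₂.V_le_oddGen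
  have hDT : D ≤ T := sup_le h.V_le_T h.symm.V_le_T
  have h8 : 8 ∣ Nat.card ↥(M₁ ⊓ M₂) := by
    rw [← h.card_D hd, ← Nat.card_congr (Subgroup.subgroupOfEquivOfLe hDH).toEquiv]
    exact Subgroup.card_dvd_of_le fun x hx => ⟨h.le₁ (hDT hx), h.le₂ (hDT hx)⟩
  obtain ⟨a, ha⟩ := h8
  have hdvd := Subgroup.card_dvd_of_le (inf_le_left : M₁ ⊓ M₂ ≤ M₁)
  rw [h24, ha] at hdvd
  have ha3 : a ∣ 3 := (Nat.mul_dvd_mul_iff_left (by norm_num : 0 < 8)).1 hdvd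
  rcases (Nat.dvd_prime Nat.prime_three).1 ha3 with rfl | rfl
  · omega
  · exact absurd (Subgroup.eq_of_le_of_card_ge (inf_le_left : M₁ ⊓ M₂ ≤ M₁) (by omega))
      (fun e => hnle (e.ge.trans inf_le_right))

end Pair

end CfsgLib.ZNEnd
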